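import Cfsg.Agent.FrameSix90.Transport
import Cfsg.Agent.OrthSmall.SixMinus
import Cfsg.Agent.Eq.Def_GeometricClasses
import Cfsg.Agent.Eq.Def_LieClassical

/-!
The normaliser in `SU₄(p)` of a group of symplectic type with centre of order four is maximal.
-/

set_option autoImplicit false
set_option maxHeartbeats 1000000

namespace CfsgLib.SUFour90

open Matrix CfsgLib.OrthSmall CfsgLib.Classical.Orth
open CfsgLib.Classical.PrimeDerangement (Sympl.Data Sympl.data_of)

/-- `SU₄` acting on the six-dimensional orthogonal space of minus type, with the signs as kernel. -/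
theorem exists_phiMinus {F K : Type*} [Field F] [Fintype F] [Field K] [Fintype K] {q : ℕ}
    (hF : Fintype.card F = q) (hK : Fintype.card K = q ^ 2) (a b : F)
    (hab : ∀ z₁ z₂ : F, z₁ ^ 2 + a * z₁ * z₂ + b * z₂ ^ 2 = 0 → z₁ = 0 ∧ z₂ = 0) :
    ∃ φ : Cfsg.SU 4 K q →* GL I6m F, φ.range ≤ Cfsg.isometryGroup F (Cfsg.quadFormMinus 2 F a b) ∧
      ∀ g, φ g = 1 ↔ (g.1.1 = 1 ∨ g.1.1 = -1) := by
  classical
  obtain ⟨alg, σ, r, hset, hσq⟩ := exists_setting hF hK a b hab
  letI := alg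
  obtain ⟨ε, hε1⟩ := CfsgLib.Unitary.exists_norm_eq hK (a := (-1 : K))
    (by rw [CfsgLib.Unitary.neg_pow_q hK, one_pow])
  have hε : ε * σ ε = -1 := by rw [hσq, ← pow_succ', hε1]
  have hε0 : ε ≠ 0 := fun h0 => by simp [h0] at hε
  let e3 := LinearEquiv.ofBijective (coord3 r ε a b) (hset.coord3_bijective hε0)
  have hsu : ∀ g : Cfsg.SU 4 K q, (g.1.1)ᵀ.map σ * g.1.1 = 1 := fun g => by
    have := CfsgLib.Unitary.conjTranspose_mul_self hK
      ((CfsgLib.Unitary.preserves_iff_orthonorm_cols hK g.1.1).1 g.2)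
    rw [show (g.1.1)ᵀ.map σ = (g.1.1).transpose.map (fun x => x ^ q) from
      Matrix.ext fun i j => hσq _]
    exact this
  let Φ : Cfsg.SU 4 K q →* Matrix I6 I6 K :=
    (klein (F := K)).comp ((Units.coeHom _).comp
      (Matrix.SpecialLinearGroup.toGL.comp (Cfsg.SU 4 K q).subtype))
  have hΦ : ∀ g, Φ g = klein g.1.1 := fun g => rfl
  obtain ⟨emb, he⟩ : ∃ emb : (I6m → F) →ₗ[F] (I6 → K), ∀ v, emb v = twist6 σ (coord3 r ε a b v) :=
    ⟨twist6 σ ∘ₗ coord3 r ε a b, fun v => rfl⟩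
  obtain ⟨φ, hφ⟩ := exists_hom_of_stable Φ emb
    (e3.symm.toLinearMap ∘ₗ LinearMap.funLeft F K Sum.inl)
    (fun v => by rw [he]; exact e3.symm_apply_apply v) (fun g v => by
      rw [he, he, hΦ, LinearMap.comp_apply]
      show twist6 σ (e3 (e3.symm _)) = _
      rw [e3.apply_symm_apply]
      exact hset.twist6_klein g.1.2 (hsu g) (coord3 r ε a b v))
  let f : Cfsg.SU 4 K q →* Cfsg.isometryGroup F (Cfsg.quadFormMinus 2 F a b) :=
    (MonoidHom.toHomUnits φ).codRestrict _ fun g => fun u _ => by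
      show Cfsg.quadFormMinus 2 F a b (φ g *ᵥ u) = Cfsg.quadFormMinus 2 F a b u
      apply (algebraMap F K).injective
      rw [← hset.quadForm_twist6 hε, ← hset.quadForm_twist6 hε]
      rw [← he, ← he, hφ, hΦ]
      exact klein_sl g.1 _
  refine ⟨(Cfsg.isometryGroup F (Cfsg.quadFormMinus 2 F a b)).subtype.comp f, ?_, fun g => ?_⟩
  · rintro _ ⟨s, rfl⟩; exact (f s).2
  have hval : ((Cfsg.isometryGroup F (Cfsg.quadFormMinus 2 F a b)).subtype.comp f g : GL I6m F).val = φ g := rfl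
  constructor
  · intro hg
    refine FrameSix90.eq_sign_of_klein ?_
    have h1 : φ g = 1 := hval.symm.trans (congrArg Units.val hg)
    have hemb : ∀ x : Fin 3 → K, klein g.1.1 *ᵥ twist6 σ x = twist6 σ x := fun x => by
      obtain ⟨v, rfl⟩ := e3.surjective x
      have := hφ g v
      rw [h1, one_mulVec, hΦ, he] at this
      exact this.symm
    have hr : σ r - r ≠ 0 := sub_ne_zero.2 hset.ne
    have hsingle : ∀ k : I6, klein g.1.1 *ᵥ Pi.single k (1 : K) = Pi.single k 1 := by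
      intro k
      have key : ∀ i : Fin 3, klein g.1.1 *ᵥ Pi.single (Sum.inl i : I6) (1 : K) = Pi.single (Sum.inl i) 1 ∧
          klein g.1.1 *ᵥ Pi.single (Sum.inr i : I6) (1 : K) = Pi.single (Sum.inr i) 1 := by
        intro i
        have hsp : ∀ c : K, twist6 σ (Pi.single i c) =
            c • Pi.single (Sum.inl i : I6) (1 : K) + σ c • Pi.single (Sum.inr i : I6) (1 : K) := by
          intro c
          funext l
          rcases l with l | l <;> by_cases hl : l = i <;> simp [twist6, hl]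
        have e1 := hemb (Pi.single i 1)
        have e2 := hemb (Pi.single i r)
        rw [hsp, map_one, one_smul, one_smul, mulVec_add] at e1
        rw [hsp, mulVec_add, mulVec_smul, mulVec_smul] at e2
        set P := klein g.1.1 *ᵥ Pi.single (Sum.inl i : I6) (1 : K)
        set N := klein g.1.1 *ᵥ Pi.single (Sum.inr i : I6) (1 : K)
        have hN : N = Pi.single (Sum.inr i : I6) (1 : K) := by
          refine smul_right_injective _ hr (funext fun l => ?_)
          have a1 := congrFun e1 l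
          have a2 := congrFun e2 l
          simp only [Pi.add_apply, Pi.smul_apply, smul_eq_mul] at a1 a2 ⊢
          linear_combination a2 - r * a1
        refine ⟨?_, hN⟩
        rw [hN] at e1
        exact add_right_cancel e1
      rcases k with i | i
      exacts [(key i).1, (key i).2]
    refine Matrix.ext_of_mulVec_single fun k => ?_
    rw [hsingle k, one_mulVec]
  · intro hg
    refine Units.ext (hval.trans ?_)
    refine Matrix.ext_of_mulVec_single fun k => ?_
    rw [Units.val_one, one_mulVec]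
    have hinj : Function.Injective emb := fun u v huv => by
      rw [he, he] at huv
      exact (hset.coord3_bijective hε0).1 (funext fun i => congrFun huv (.inl i))
    apply hinj
    rw [hφ, hΦ, FrameSix90.klein_sign hg, one_mulVec]

theorem c6_maximal {F : Type*} [Field F] [Fintype F] (q : ℕ) (hF : Fintype.card F = q ^ 2) (p : ℕ)
    (R : Subgroup (GL (Fin 4) F)) (hp : p.Prime) (hq : q = p) (h4 : p % 4 = 3)
    (hs : Cfsg.Geo.IsSymplecticTypeGroup 2 R) (hirr : Cfsg.Geo.ActsAbsolutelyIrreducibly (Cfsg.Geo.matrixSet R))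
    (hRU : R ≤ Cfsg.GU 4 F q) (hcard : Nat.card R = 64) (hZ : Nat.card (Subgroup.center R) = 4) :
    Cfsg.Geo.IsMaximalIn (Cfsg.GU 4 F q ⊓ Cfsg.Geo.specialLinear (Fin 4) F)
      (Cfsg.Geo.subgroupNormalizer R ⊓ (Cfsg.GU 4 F q ⊓ Cfsg.Geo.specialLinear (Fin 4) F)) := by
  classical
  subst hq
  haveI : Fact q.Prime := ⟨hp⟩
  have hD := CfsgLib.Classical.PrimeDerangement.Sympl.data_of hs hirr
  have hoddq : Odd q := Nat.odd_iff.2 (by omega)
  have h2 : (2 : ZMod q) ≠ 0 := CfsgLib.SL2.two_ne_zero_iff_odd.2 (by rwa [ZMod.card])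
  have h2K : (2 : F) ≠ 0 := CfsgLib.SL2.two_ne_zero_iff_odd.2 (by rw [hF]; exact hoddq.pow)
  have hab : ∀ z₁ z₂ : ZMod q, z₁ ^ 2 + 0 * z₁ * z₂ + 1 * z₂ ^ 2 = 0 → z₁ = 0 ∧ z₂ = 0 := by
    intro z₁ z₂ h
    by_cases hz : z₂ = 0
    · subst hz; exact ⟨by simpa using h, rfl⟩
    · refine absurd ?_ (show ¬ (q % 4 ≠ 3) from fun h' => h' h4)
      refine ZMod.exists_sq_eq_neg_one_iff.1 ⟨z₁ / z₂, ?_⟩
      field_simp
      linear_combination -h
  obtain ⟨φ, hφI, hφk⟩ := exists_phiMinus (ZMod.card q) hF 0 1 hab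
  let σ : Cfsg.SU 4 F q →* GL (Fin 4) F := Matrix.SpecialLinearGroup.toGL.comp (Cfsg.SU 4 F q).subtype
  have hrange : σ.range = Cfsg.GU 4 F q ⊓ Cfsg.Geo.specialLinear (Fin 4) F := by
    ext g
    constructor
    · rintro ⟨s, rfl⟩
      exact ⟨s.2, Units.ext s.1.2⟩
    · rintro ⟨hg, hg1⟩
      exact ⟨⟨⟨g.val, congrArg Units.val hg1⟩, hg⟩, Units.ext rfl⟩
  obtain ⟨w, -, i, hi, -⟩ := FrameSix90.exists_root_neg_one hD hZ
  have hRS : R ≤ Cfsg.GU 4 F q ⊓ Cfsg.Geo.specialLinear (Fin 4) F := fun g hg =>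
    ⟨hRU hg, Units.ext (FrameSix90.det_eq_one h2K hD hi hg)⟩
  rw [← hrange] at hRS ⊢
  exact FrameSix90.symplecticType_four_isMaximal (Q := Cfsg.quadFormMinus 2 (ZMod q) 0 1)
    (isNondegQF_quadFormMinus 2 0 1 hab) (by rwa [ZMod.card]) h2 (by simp) h2K
    (CfsgLib.Unitary.commutator_SU_eq_top hF (by norm_num) (fun h => by omega))
    (Nat.card_congr (pomega_six_minus_equiv (ZMod.card q) hF 0 1 hab).some.toEquiv).symm
    σ (fun a b h => Subtype.ext (Subtype.ext (congrArg Units.val h))) φ hφI hφk R hD hRS hcard hZ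

end CfsgLib.SUFour90
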